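import Mathlib
import Cfsg.Agent.Lib.Helper50.FOT.Defs

/-!
# FOT (S3999), package [SOLV]: a group with Frobenius data is solvable iff the complement is
-/

set_option autoImplicit false
open scoped Pointwise

namespace Cfsg.Agent.Lib.Helper8.FOT

open Cfsg.Agent.Lib.Helper50.FOT

universe u

/-- [SOLV] -/
theorem pkgSolv : Cfsg.Agent.Lib.Helper50.FOT.PkgSolv.{u} := by
  intro X _ _ K C hFD
  constructor
  · intro hX
    exact solvable_of_solvable_injective (f := C.subtype) C.subtype_injective
  · intro hC
    haveI : K.Normal := hFD.normal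
    haveI : Group.IsNilpotent K := hFD.nilp
    haveI : Group.IsSolvable K := inferInstance
    -- the quotient is an image of `C`
    let φ : C →* X ⧸ K := (QuotientGroup.mk' K).comp C.subtype
    have hφ : Function.Surjective φ := by
      intro y
      obtain ⟨x, rfl⟩ := QuotientGroup.mk_surjective y
      obtain ⟨⟨k, c⟩, hkc, -⟩ := hFD.compl.existsUnique x
      refine ⟨c, ?_⟩
      show ((c : X) : X ⧸ K) = (x : X ⧸ K)
      rw [QuotientGroup.eq]
      have hx : x = (k : X) * (c : X) := hkc.symm
      rw [hx]
      have : (c : X)⁻¹ * ((k : X) * (c : X)) = (c : X)⁻¹ * (k : X) * ((c : X)⁻¹)⁻¹ := by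
        rw [inv_inv, mul_assoc]
      rw [this]
      exact hFD.normal.conj_mem _ k.2 _
    haveI : Group.IsSolvable (X ⧸ K) := solvable_of_surjective hφ
    refine solvable_of_ker_le_range K.subtype (QuotientGroup.mk' K) ?_
    rw [QuotientGroup.ker_mk', Subgroup.range_subtype]

end Cfsg.Agent.Lib.Helper8.FOT
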